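import Cfsg.Agent.Lib.Golay.SimpleData
import Cfsg.Agent.Lib.Golay.Dodecad2

/-!
# Simplicity of the Mathieu groups
-/

set_option autoImplicit false

namespace Cfsg.Agent.Lib.Golay

open Cfsg Cfsg.Agent.Lib.Compute
open scoped Pointwise

theorem chain1 : checkChain [] m24Final
    [m24Level2, m24Level3, m24Level4, m24Level5, m24Level6, m24Level7] [23] = true :=
  (checkChain_cons (lv := m24Level1)
    (rest := [m24Level2, m24Level3, m24Level4, m24Level5, m24Level6, m24Level7]) m24_check).2

theorem chain2 : checkChain [] m24Final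
    [m24Level3, m24Level4, m24Level5, m24Level6, m24Level7] [0, 23] = true :=
  (checkChain_cons (lv := m24Level2) chain1).2

theorem chain3 : checkChain [] m24Final
    [m24Level4, m24Level5, m24Level6, m24Level7] [1, 0, 23] = true :=
  (checkChain_cons (lv := m24Level3) chain2).2

/-- `M21` is simple. -/
theorem simple_M21 : IsSimpleGroup (stabL (GE []) (([1, 0, 23] : List ℕ).map pt)) :=
  simple_A (R := ALL) (levels := [m24Level4, m24Level5, m24Level6, m24Level7]) (by decide)
    (checkLevels_of_checkChain _ _ chain3) (finalOK_of_checkChain _ _ (by decide) chain3)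
    (fun σ _ => isInv_ALL σ)
    (by
      intro lv hlv
      simp only [List.take, List.mem_cons, List.not_mem_nil, or_false] at hlv
      rcases hlv with rfl | rfl <;> exact ⟨rfl, rfl, by simp [m24Level4, m24Level5]⟩)
    (by simp) (by decide +kernel) (p := 7) (by norm_num) (by decide +kernel) (by decide +kernel)
    (c := c7) (by decide +kernel) (by decide +kernel) (decomps := dec21) (by decide +kernel)

/-- `M22` is simple. -/
theorem simple_M22 : IsSimpleGroup (stabL (GE []) (([0, 23] : List ℕ).map pt)) :=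
  simple_B (R := ALL) (levels := [m24Level3, m24Level4, m24Level5, m24Level6, m24Level7]) (by decide)
    (checkLevels_of_checkChain _ _ chain2) (finalOK_of_checkChain _ _ (by decide) chain2)
    (fun σ _ => isInv_ALL σ)
    (by
      intro lv hlv
      simp only [List.take, List.mem_cons, List.not_mem_nil, or_false] at hlv
      rcases hlv with rfl | rfl <;> exact ⟨rfl, rfl, by simp [m24Level3, m24Level4]⟩)
    (by simp) (by decide +kernel) (x := 1) (by norm_num) (by decide +kernel) simple_M21
    (p := 2) (q := 11) (by norm_num) (by norm_num) (by norm_num) (by decide +kernel) (by decide +kernel)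

/-- `M23` is simple. -/
theorem simple_M23 : IsSimpleGroup (stabL (GE []) (([23] : List ℕ).map pt)) :=
  simple_A (R := ALL) (levels := [m24Level2, m24Level3, m24Level4, m24Level5, m24Level6, m24Level7])
    (by decide)
    (checkLevels_of_checkChain _ _ chain1) (finalOK_of_checkChain _ _ (by decide) chain1)
    (fun σ _ => isInv_ALL σ)
    (by
      intro lv hlv
      simp only [List.take, List.mem_cons, List.not_mem_nil, or_false] at hlv
      rcases hlv with rfl | rfl <;> exact ⟨rfl, rfl, by simp [m24Level2, m24Level3]⟩)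
    (by simp) (by decide +kernel) (p := 23) (by norm_num) (by decide +kernel) (by decide +kernel)
    (c := c23) (by decide +kernel) (by decide +kernel) (decomps := dec23) (by decide +kernel)

/-- `M24` as a chain group is simple. -/
theorem simple_M24' : IsSimpleGroup (stabL (GE []) (([] : List ℕ).map pt)) :=
  simple_B (R := ALL) (levels := m24Levels) (by simp)
    (checkLevels_of_checkChain _ _ m24_check) (finalOK_of_checkChain _ _ (by simp) m24_check)
    (fun σ _ => isInv_ALL σ)
    (by
      intro lv hlv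
      have h : m24Levels.take 2 = [m24Level1, m24Level2] := rfl
      rw [h] at hlv
      simp only [List.mem_cons, List.not_mem_nil, or_false] at hlv
      rcases hlv with rfl | rfl <;> exact ⟨rfl, rfl, by simp [m24Level1, m24Level2]⟩)
    (by simp [m24Levels]) (by decide +kernel) (x := 23) (by norm_num) (by decide +kernel) simple_M23
    (p := 2) (q := 3) (by norm_num) (by norm_num) (by norm_num) (by decide +kernel) (by decide +kernel)

/-- S0365 -/
theorem simple_M24 : IsSimpleGroup M24 := by
  have h : stabL (GE []) (([] : List ℕ).map pt) = M24 := by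
    rw [List.map_nil, stabL_nil, GE_nil]
  rw [← h]
  exact simple_M24'

theorem m11_check : checkLevels [d0] [m12Level2, m12Level3, m12Level4, m12Level5] [0] = true :=
  (checkLevels_cons (lv := m12Level1) m12_check).2

theorem m11_finalOK : FinalOK [d0] [m12Level2, m12Level3, m12Level4, m12Level5] [0] := m12_finalOK

/-- `M11` is simple. -/
theorem simple_M11 : IsSimpleGroup (stabL (GE [d0]) (([0] : List ℕ).map pt)) :=
  simple_A (R := d0) (levels := [m12Level2, m12Level3, m12Level4, m12Level5]) (by decide)
    m11_check m11_finalOK (fun σ hσ => isInv_D0_of_GE hσ)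
    (by
      intro lv hlv
      simp only [List.take, List.mem_cons, List.not_mem_nil, or_false] at hlv
      rcases hlv with rfl | rfl <;> exact ⟨rfl, rfl, by simp [m12Level2, m12Level3]⟩)
    (by simp) (by decide +kernel) (p := 11) (by norm_num) (by decide +kernel) (by decide +kernel)
    (c := c11) (by decide +kernel) (by decide +kernel) (decomps := dec11) (by decide +kernel)

/-- `M12` is simple. -/
theorem simple_M12' : IsSimpleGroup (stabL (GE [d0]) (([] : List ℕ).map pt)) :=
  simple_B (R := d0) (levels := m12Levels) (by simp) m12_check m12_finalOK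
    (fun σ hσ => isInv_D0_of_GE hσ)
    (by
      intro lv hlv
      have h : m12Levels.take 2 = [m12Level1, m12Level2] := rfl
      rw [h] at hlv
      simp only [List.mem_cons, List.not_mem_nil, or_false] at hlv
      rcases hlv with rfl | rfl <;> exact ⟨rfl, rfl, by simp [m12Level1, m12Level2]⟩)
    (by simp [m12Levels]) (by decide +kernel) (x := 0) (by norm_num) (by decide +kernel) simple_M11
    (p := 2) (q := 3) (by norm_num) (by norm_num) (by norm_num) (by decide +kernel) (by decide +kernel)

/-! ### Transfer by conjugation -/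

/-- A subgroup of `M24` conjugate to a subgroup of permutations. -/
def conjEquivOf {g : Equiv.Perm GolayPt} (hg : g ∈ M24) {K : Subgroup M24}
    {S : Subgroup (Equiv.Perm GolayPt)} (hS : S ≤ M24)
    (h : ∀ σ (hσ : σ ∈ M24), ((⟨σ, hσ⟩ : M24) ∈ K ↔ g * σ * g⁻¹ ∈ S)) : K ≃* S where
  toFun x := ⟨g * x.1.1 * g⁻¹, (h _ x.1.2).1 x.2⟩
  invFun y := ⟨⟨g⁻¹ * y.1 * g, M24.mul_mem (M24.mul_mem (M24.inv_mem hg) (hS y.2)) hg⟩,
    (h _ _).2 (by
      have : g * (g⁻¹ * y.1 * g) * g⁻¹ = y.1 := by group
      rw [this]
      exact y.2)⟩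
  left_inv x := by
    apply Subtype.ext
    apply Subtype.ext
    show g⁻¹ * (g * x.1.1 * g⁻¹) * g = x.1.1
    group
  right_inv y := by
    apply Subtype.ext
    show g * (g⁻¹ * y.1 * g) * g⁻¹ = y.1
    group
  map_mul' x y := by
    apply Subtype.ext
    show g * (x.1.1 * y.1.1) * g⁻¹ = (g * x.1.1 * g⁻¹) * (g * y.1.1 * g⁻¹)
    group

theorem stabL_le_M24 (extra : List ℕ) (L : List GolayPt) : stabL (GE extra) L ≤ M24 :=
  fun _ h => h.1.1

theorem conj_apply_eq {g σ : Equiv.Perm GolayPt} {p q : GolayPt} (hgp : g p = q) :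
    (g * σ * g⁻¹) q = q ↔ σ p = p := by
  have h1 : g⁻¹ q = p := by
    rw [Equiv.Perm.inv_eq_iff_eq]
    exact hgp.symm
  simp only [Equiv.Perm.mul_apply]
  rw [h1, ← hgp]
  exact g.injective.eq_iff

/-- S0377 -/
theorem simple_stabilizer_point (p : GolayPt) : IsSimpleGroup (MulAction.stabilizer M24 p) := by
  have := M24_isPretransitive
  obtain ⟨g, hg⟩ := MulAction.exists_smul_eq M24 p (pt 23)
  have hgp : (g : Equiv.Perm GolayPt) p = pt 23 := hg
  have := simple_M23
  refine (conjEquivOf (S := stabL (GE []) (([23] : List ℕ).map pt)) g.2 (stabL_le_M24 _ _) ?_).isSimpleGroup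
  intro σ hσ
  rw [MulAction.mem_stabilizer_iff]
  constructor
  · intro h
    have h' : σ p = p := h
    refine ⟨⟨M24.mul_mem (M24.mul_mem g.2 hσ) (M24.inv_mem g.2), by simp⟩, ?_⟩
    intro x hx
    simp only [List.map_cons, List.map_nil, List.mem_singleton] at hx
    subst hx
    exact (conj_apply_eq hgp).2 h'
  · intro h
    have h2 := h.2 (pt 23) (by simp)
    exact (conj_apply_eq hgp).1 h2

/-- S0379 -/
theorem simple_stabilizer_two {p q : GolayPt} (hpq : p ≠ q) :
    IsSimpleGroup ↥(MulAction.stabilizer M24 p ⊓ MulAction.stabilizer M24 q) := by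
  have h2 := M24_isMultiplyPretransitive 2 (by norm_num)
  have h2' : ∃ g : M24, g • p = pt 23 ∧ g • q = pt 0 :=
    MulAction.is_two_pretransitive_iff.1 h2 hpq (show pt 23 ≠ pt 0 by decide)
  obtain ⟨g, hg1, hg2⟩ := h2'
  have hg1' : (g : Equiv.Perm GolayPt) p = pt 23 := hg1
  have hg2' : (g : Equiv.Perm GolayPt) q = pt 0 := hg2
  have := simple_M22
  refine (conjEquivOf (S := stabL (GE []) (([0, 23] : List ℕ).map pt)) g.2 (stabL_le_M24 _ _) ?_).isSimpleGroup
  intro σ hσ
  rw [Subgroup.mem_inf, MulAction.mem_stabilizer_iff, MulAction.mem_stabilizer_iff]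
  constructor
  · rintro ⟨h, h'⟩
    have h3 : σ p = p := h
    have h4 : σ q = q := h'
    refine ⟨⟨M24.mul_mem (M24.mul_mem g.2 hσ) (M24.inv_mem g.2), by simp⟩, ?_⟩
    intro x hx
    simp only [List.map_cons, List.map_nil, List.mem_cons, List.not_mem_nil, or_false] at hx
    rcases hx with rfl | rfl
    · exact (conj_apply_eq hg2').2 h4
    · exact (conj_apply_eq hg1').2 h3
  · intro h
    exact ⟨(conj_apply_eq hg1').1 (h.2 (pt 23) (by simp)), (conj_apply_eq hg2').1 (h.2 (pt 0) (by simp))⟩

theorem conj_image_iff {d : Finset GolayPt} {g σ : Equiv.Perm GolayPt} (hgd : d.image g = D0) :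
    D0.image (g * σ * g⁻¹) = D0 ↔ d.image σ = d := by
  have h1 : D0.image (⇑g⁻¹) = d := by
    rw [← hgd, image_image_mul, inv_mul_cancel, image_one]
  rw [← image_image_mul, ← image_image_mul, h1]
  constructor
  · intro h
    have h2 := congrArg (Finset.image (⇑g⁻¹)) h
    rw [image_image_mul, inv_mul_cancel, image_one, h1] at h2
    exact h2
  · intro h
    rw [h, hgd]

/-- S0383 -/
theorem simple_stabilizer_dodecad {d : Finset GolayPt} (hd : d ∈ dodecads) :
    IsSimpleGroup (MulAction.stabilizer M24 d) := by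
  obtain ⟨g, hg, hgd⟩ := exists_image_eq_D0 hd
  have := simple_M12'
  refine (conjEquivOf (S := stabL (GE [d0]) (([] : List ℕ).map pt)) hg (stabL_le_M24 _ _) ?_).isSimpleGroup
  intro σ hσ
  rw [MulAction.mem_stabilizer_iff]
  constructor
  · intro h
    have h' : d.image σ = d := h
    refine ⟨mem_GE_d0_iff.2 ⟨M24.mul_mem (M24.mul_mem hg hσ) (M24.inv_mem hg), (conj_image_iff hgd).2 h'⟩, by simp⟩
  · intro h
    exact (conj_image_iff hgd).1 (mem_GE_d0_iff.1 h.1).2

/-- S0388 -/
theorem simple_stabilizer_flag {d : Finset GolayPt} (hd : d ∈ dodecads) {p : GolayPt} (hp : p ∈ d) :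
    IsSimpleGroup ↥(MulAction.stabilizer M24 d ⊓ MulAction.stabilizer M24 p) := by
  obtain ⟨g, hg, hgd, hgp⟩ := exists_flag hd hp
  have := simple_M11
  refine (conjEquivOf (S := stabL (GE [d0]) (([0] : List ℕ).map pt)) hg (stabL_le_M24 _ _) ?_).isSimpleGroup
  intro σ hσ
  rw [Subgroup.mem_inf, MulAction.mem_stabilizer_iff, MulAction.mem_stabilizer_iff]
  constructor
  · rintro ⟨h, h'⟩
    have h3 : d.image σ = d := h
    have h4 : σ p = p := h'
    refine ⟨mem_GE_d0_iff.2 ⟨M24.mul_mem (M24.mul_mem hg hσ) (M24.inv_mem hg), (conj_image_iff hgd).2 h3⟩, ?_⟩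
    intro x hx
    simp only [List.map_cons, List.map_nil, List.mem_singleton] at hx
    subst hx
    exact (conj_apply_eq hgp).2 h4
  · intro h
    exact ⟨(conj_image_iff hgd).1 (mem_GE_d0_iff.1 h.1).2, (conj_apply_eq hgp).1 (h.2 (pt 0) (by simp))⟩

end Cfsg.Agent.Lib.Golay
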