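import Cfsg.Agent.Lib.Golay.Span
import Cfsg.Agent.Lib.Steiner.Transfer
import Cfsg.Agent.Lib.Golay.SimpleGroups
import Cfsg.Prelude.Def_Sporadic

/-!
# The derived designs of the octads and their automorphisms

* The automorphisms of the system of octads through a point are the point stabiliser of `M24`.
* The automorphisms of the system of octads through two points extend to `M24`, perhaps after
  interchanging the two points.
-/

set_option autoImplicit false

namespace Cfsg.Agent.Lib.Golay

open Cfsg Cfsg.Agent.Lib.Compute Cfsg.Agent.Lib.Steiner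
open scoped Pointwise

theorem M24_le_aut : M24 ≤ setSystemAut octads := by
  rw [← M24_eq_setSystemAut]

theorem enc_mem_octads {g : ℕ} (h : inCode g = true) (h8 : Nat.beq (Enc.popAux g 24) 8 = true) :
    enc.finOf g ∈ octads := by
  refine ⟨⟨wordOf g, mem_of_inCode h, support_wordOf g⟩, ?_⟩
  rw [card_enc_finOf]
  exact Nat.eq_of_beq_eq_true h8

/-! ### One point -/

/-- Twelve octads through the point at infinity, spanning the code. -/
def l1 : List ℕ := [13062145, 9347075, 13938692, 11100169, 10170384, 11952160, 15515712, 14254209,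
  11731203, 12325377, 11654144, 14919680]

theorem l1_cert : basis = ([1, 3, 4, 9, 16, 32, 64, 129, 258, 513, 1024, 2048] : List ℕ).map (spanWord l1) := by
  decide +kernel

theorem l1_check : l1.all (fun g => inCode g && Nat.beq (Enc.popAux g 24) 8 && tb g 23) = true := by
  decide +kernel

/-- The derived system at the point at infinity. -/
abbrev P1 : Finset GolayPt := {none}

abbrev D1 : Set (Finset {a // a ∉ P1}) := derivedS octads P1

theorem steiner_D1 : IsSteinerSystem 4 7 D1 :=
  isSteiner_derived (t := 4) (k := 7) octads_steiner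

theorem card_X1 : Fintype.card {a // a ∉ P1} = 23 := by
  rw [card_notMem]
  simp

theorem ext_mem_M24_1 {σ : Equiv.Perm {a // a ∉ P1}} (hσ : σ ∈ setSystemAut D1) :
    Equiv.Perm.ofSubtype σ ∈ M24 := by
  apply mem_M24_of_span l1_cert
  intro g hg
  apply permWord_mem_of_image
  have h := List.all_eq_true.1 l1_check g hg
  simp only [Bool.and_eq_true] at h
  refine (image_ofSubtype_mem hσ (enc_mem_octads h.1.1 h.1.2) ?_).1
  intro a ha
  rw [Finset.mem_singleton] at ha
  subst ha
  rw [Enc.mem_finOf]
  rw [tb_eq] at h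
  exact h.2

/-- The automorphism group of the derived system is the point stabiliser. -/
noncomputable def autD1Equiv : setSystemAut D1 ≃* MulAction.stabilizer M24 (none : GolayPt) :=
  (Subgroup.topEquiv (G := setSystemAut D1)).symm.trans
    (fixEquiv M24_le_aut (P := P1) (K := MulAction.stabilizer M24 (none : GolayPt))
      (H := ⊤) (by
        intro g
        rw [MulAction.mem_stabilizer_iff]
        simp only [P1, Finset.mem_singleton, forall_eq]
        rfl) (by
        intro σ
        simp only [Subgroup.mem_top, true_iff]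
        exact ext_mem_M24_1 σ.2))

theorem autD1_pretransitive : MulAction.IsMultiplyPretransitive (setSystemAut D1) {a // a ∉ P1} 4 := by
  refine pretransitive_derived (j := 1) (k := 4) M24_le_aut
    (M24_isMultiplyPretransitive 5 (by norm_num)) ⟨fun _ => none, fun a b _ => Subsingleton.elim a b⟩
    (fun _ => Finset.mem_singleton.2 rfl) (fun a ha => ⟨0, (Finset.mem_singleton.1 ha).symm⟩)

/-! ### Two points -/

/-- Eleven octads through two points and an octad through only one of them, spanning the code. -/
def l2 : List ℕ := [13062145, 13938692, 14716939, 13811730, 14176296, 15515712, 14254209, 15274244,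
  15073798, 16262146, 14919680]

def x0 : ℕ := 9347075

/-- The mask of the two points. -/
def m2 : ℕ := 12582912

theorem l3_cert : basis = ([1, 2049, 2, 2052, 2057, 2068, 32, 65, 130, 2307, 2561, 1024] : List ℕ).map
    (spanWord (l2 ++ [x0])) := by
  decide +kernel

theorem l2_check : l2.all (fun g => inCode g && Nat.beq (Enc.popAux g 24) 8 && Nat.beq (Nat.land g m2) m2) = true := by
  decide +kernel

theorem x0_code : inCode x0 = true := by decide +kernel

theorem x0_pop : Nat.beq (Enc.popAux x0 24) 8 = true := by decide +kernel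

/-- The two points. -/
abbrev P2 : Finset GolayPt := {none, some 22}

abbrev D2 : Set (Finset {a // a ∉ P2}) := derivedS octads P2

theorem steiner_D2 : IsSteinerSystem 3 6 D2 :=
  isSteiner_derived (t := 3) (k := 6) octads_steiner

theorem card_X2 : Fintype.card {a // a ∉ P2} = 22 := by
  rw [card_notMem]
  simp

theorem P2_subset_of_l2 {g : ℕ} (hg : Nat.land g m2 = m2) : P2 ⊆ enc.finOf g := by
  intro a ha
  have h1 : m2.testBit (enc.idx a) = true := by
    simp only [P2, Finset.mem_insert, Finset.mem_singleton] at ha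
    rcases ha with rfl | rfl <;> decide +kernel
  rw [Enc.mem_finOf]
  have h2 : (g &&& m2).testBit (enc.idx a) = true := by
    have : g &&& m2 = m2 := hg
    rw [this]
    exact h1
  rw [Nat.testBit_and] at h2
  simp only [Bool.and_eq_true] at h2
  exact h2.1

/-- The key criterion. -/
theorem mem_M24_of_pairing {s : Equiv.Perm GolayPt}
    (h1 : ∀ b ∈ octads, P2 ⊆ b → b.image s ∈ octads)
    (h2 : ∀ b ∈ octads, P2 ⊆ b → b.image (⇑s⁻¹) ∈ octads)
    (ha : ∑ i, wordOf x0 i * permWord s (wordOf x0) i = 0) : s ∈ M24 := by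
  have hl2 : ∀ g ∈ l2, enc.finOf g ∈ octads ∧ P2 ⊆ enc.finOf g := by
    intro g hg
    have h := List.all_eq_true.1 l2_check g hg
    simp only [Bool.and_eq_true] at h
    exact ⟨enc_mem_octads h.1.1 h.1.2, P2_subset_of_l2 (Nat.eq_of_beq_eq_true h.2)⟩
  have hx0 : permWord s (wordOf x0) ∈ golayCode := by
    apply mem_of_pairing_span l3_cert
    intro g hg
    rw [List.mem_append, List.mem_singleton] at hg
    rcases hg with hg | rfl
    · obtain ⟨h3, h4⟩ := hl2 g hg
      have h5 : permWord s⁻¹ (wordOf g) ∈ golayCode := permWord_mem_of_image (h2 _ h3 h4)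
      have h6 := pairing_eq_zero h5 (mem_of_inCode x0_code)
      rw [← h6]
      refine (Equiv.sum_comp s (fun i => wordOf g i * wordOf x0 (s.symm i))).symm.trans ?_
      apply Finset.sum_congr rfl
      intro i _
      simp only [Equiv.symm_apply_apply]
      rfl
    · exact ha
  apply mem_M24_of_span l3_cert
  intro g hg
  rw [List.mem_append, List.mem_singleton] at hg
  rcases hg with hg | rfl
  · obtain ⟨h3, h4⟩ := hl2 g hg
    exact permWord_mem_of_image (h1 _ h3 h4)
  · exact hx0

/-- The transposition of the two points. -/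
abbrev t2 : Equiv.Perm GolayPt := Equiv.swap none (some 22)

theorem permWord_t2 : permWord t2 (wordOf x0) = wordOf x0 + wordOf m2 := by
  decide +kernel

theorem image_t2 {b : Finset GolayPt} (hb : P2 ⊆ b) : b.image t2 = b := by
  have h1 : none ∈ b := hb (by simp)
  have h2 : some 22 ∈ b := hb (by simp)
  ext a
  rw [Finset.mem_image]
  constructor
  · rintro ⟨x, hx, rfl⟩
    by_cases hx1 : x = none
    · subst hx1
      rw [Equiv.swap_apply_left]
      exact h2
    · by_cases hx2 : x = some 22
      · subst hx2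
        rw [Equiv.swap_apply_right]
        exact h1
      · rwa [Equiv.swap_apply_of_ne_of_ne hx1 hx2]
  · intro ha
    refine ⟨t2 a, ?_, by simp⟩
    by_cases hx1 : a = none
    · subst hx1
      rw [Equiv.swap_apply_left]
      exact h2
    · by_cases hx2 : a = some 22
      · subst hx2
        rw [Equiv.swap_apply_right]
        exact h1
      · rwa [Equiv.swap_apply_of_ne_of_ne hx1 hx2]

theorem t2_not_mem : t2 ∉ M24 := by
  intro h
  have h1 : permWord t2 (wordOf x0) ∈ golayCode :=
    permWord_mem_of_mem_M24 h (mem_of_inCode x0_code)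
  rw [permWord_t2] at h1
  have h2 : wordOf m2 ∈ golayCode := by
    have h3 := add_mem h1 (mem_of_inCode x0_code)
    have h4 : wordOf x0 + wordOf m2 + wordOf x0 = wordOf m2 := by decide +kernel
    rwa [h4] at h3
  have h5 : inCode m2 = true := (inCode_iff (by decide +kernel)).2 h2
  have h6 : inCode m2 = false := by decide +kernel
  rw [h5] at h6
  exact absurd h6 (by decide)

/-- The dichotomy for an automorphism of the derived system. -/
theorem ext_dichotomy {σ : Equiv.Perm {a // a ∉ P2}} (hσ : σ ∈ setSystemAut D2) :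
    Equiv.Perm.ofSubtype σ ∈ M24 ∨ Equiv.Perm.ofSubtype σ * t2 ∈ M24 := by
  set s := Equiv.Perm.ofSubtype σ with hs
  have h1 : ∀ b ∈ octads, P2 ⊆ b → b.image s ∈ octads ∧ P2 ⊆ b.image s :=
    fun b hb hP => image_ofSubtype_mem hσ hb hP
  have hsi : s⁻¹ = Equiv.Perm.ofSubtype σ⁻¹ := by rw [hs, map_inv]
  have h2 : ∀ b ∈ octads, P2 ⊆ b → b.image (⇑s⁻¹) ∈ octads ∧ P2 ⊆ b.image (⇑s⁻¹) := by
    intro b hb hP
    rw [hsi]
    exact image_ofSubtype_mem (inv_mem hσ) hb hP
  rcases (by decide : ∀ x : ZMod 2, x = 0 ∨ x = 1) (∑ i, wordOf x0 i * permWord s (wordOf x0) i) with ha | ha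
  · exact Or.inl (mem_M24_of_pairing (fun b hb hP => (h1 b hb hP).1) (fun b hb hP => (h2 b hb hP).1) ha)
  · right
    have hi : ∀ b : Finset GolayPt, b.image (s * t2 : Equiv.Perm GolayPt) = (b.image t2).image s := by
      intro b
      rw [Finset.image_image]
      rfl
    have hi2 : ∀ b : Finset GolayPt, b.image (⇑((s * t2)⁻¹ : Equiv.Perm GolayPt)) = (b.image (⇑s⁻¹)).image t2 := by
      intro b
      rw [Finset.image_image, mul_inv_rev, Equiv.swap_inv]
      rfl
    refine mem_M24_of_pairing ?_ ?_ ?_
    · intro b hb hP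
      rw [hi, image_t2 hP]
      exact (h1 b hb hP).1
    · intro b hb hP
      rw [hi2, image_t2 (h2 b hb hP).2]
      exact (h2 b hb hP).1
    · have h3 : permWord (s * t2) (wordOf x0) = permWord s (permWord t2 (wordOf x0)) := by
        ext a
        simp only [permWord]
        rfl
      rw [h3, permWord_t2, permWord_add]
      have h4 : permWord s (wordOf m2) = wordOf m2 := by
        ext a
        simp only [permWord]
        have h6 : ∀ a : GolayPt, wordOf m2 a = if a ∈ P2 then 1 else 0 := by decide +kernel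
        rw [h6, h6]
        have h7 : s.symm a ∈ P2 ↔ a ∈ P2 := by
          have h8 : s.symm = Equiv.Perm.ofSubtype σ⁻¹ := hsi
          rw [h8]
          exact ofSubtype_mem_iff _ a
        simp only [h7]
      rw [h4]
      have h5 : ∀ i, wordOf x0 i * (permWord s (wordOf x0) + wordOf m2) i =
          wordOf x0 i * permWord s (wordOf x0) i + wordOf x0 i * wordOf m2 i := fun i => mul_add _ _ _
      rw [Finset.sum_congr rfl (fun i _ => h5 i), Finset.sum_add_distrib, ha, sum_wordOf_mul]
      decide +kernel

/-- The automorphisms of the derived system extending by the identity to members of `M24`. -/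
noncomputable def H2 : Subgroup (setSystemAut D2) :=
  M24.comap ((Equiv.Perm.ofSubtype (p := fun a => a ∉ P2)).comp (setSystemAut D2).subtype)

theorem mem_H2 {b : setSystemAut D2} : b ∈ H2 ↔ Equiv.Perm.ofSubtype b.1 ∈ M24 := Iff.rfl

/-- `H2` is the two-point stabiliser. -/
noncomputable def h2Equiv :
    H2 ≃* ↥(MulAction.stabilizer M24 (none : GolayPt) ⊓ MulAction.stabilizer M24 (some 22 : GolayPt)) :=
  fixEquiv M24_le_aut (by
    intro g
    simp only [Subgroup.mem_inf, MulAction.mem_stabilizer_iff, P2, Finset.mem_insert, Finset.mem_singleton,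
      forall_eq_or_imp, forall_eq]
    rfl) (fun _ => Iff.rfl)

theorem isM22_H2 : IsM22 H2 :=
  haveI := simple_stabilizer_two (p := none) (q := some 22) (by decide)
  ⟨h2Equiv.isSimpleGroup, (Nat.card_congr h2Equiv.toEquiv).trans (card_stabilizer_two (by decide))⟩

/-- An element of `M24` interchanging the two points. -/
theorem exists_interchange : ∃ g : M24, g.1 none = some 22 ∧ g.1 (some 22) = none := by
  have hT : MulAction.IsMultiplyPretransitive M24 GolayPt 2 := M24_isMultiplyPretransitive 2 (by norm_num)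
  let x : Fin 2 ↪ GolayPt := ⟨![none, some 22], by decide⟩
  let y : Fin 2 ↪ GolayPt := ⟨![some 22, none], by decide⟩
  obtain ⟨g, hg⟩ := hT.exists_smul_eq x y
  exact ⟨g, congrArg (fun e : Fin 2 ↪ GolayPt => e 0) hg, congrArg (fun e : Fin 2 ↪ GolayPt => e 1) hg⟩

theorem index_H2 : H2.index = 2 := by
  obtain ⟨g, hg1, hg2⟩ := exists_interchange
  have hP : ∀ a, g.1 a ∉ P2 ↔ a ∉ P2 := by
    intro a
    have hP2 : ∀ a : GolayPt, a ∈ P2 ↔ a = none ∨ a = some 22 := by
      intro a; simp [P2]
    simp only [hP2, not_or]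
    constructor
    · rintro ⟨h1, h2⟩
      refine ⟨fun h => ?_, fun h => ?_⟩
      · subst h; exact h2 hg1
      · subst h; exact h1 hg2
    · rintro ⟨h1, h2⟩
      refine ⟨fun h => ?_, fun h => ?_⟩
      · exact h2 (g.1.injective (h.trans hg2.symm))
      · exact h1 (g.1.injective (h.trans hg1.symm))
  let τ : setSystemAut D2 := ⟨g.1.subtypePerm hP, subtypePerm_mem_aut (M24_le_aut g.2) hP⟩
  have hτ : Equiv.Perm.ofSubtype τ.1 = g.1 * t2 := by
    ext1 a
    by_cases ha : a ∉ P2
    · have h1 : a ≠ none := fun h => ha (by simp [h])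
      have h2 : a ≠ some 22 := fun h => ha (by simp [h])
      have h3 : (Equiv.Perm.ofSubtype τ.1) a = g.1 a :=
        Equiv.Perm.ofSubtype_apply_of_mem (p := fun a => a ∉ P2) τ.1 ha
      rw [h3, Equiv.Perm.mul_apply, Equiv.swap_apply_of_ne_of_ne h1 h2]
    · have h3 : (Equiv.Perm.ofSubtype τ.1) a = a :=
        Equiv.Perm.ofSubtype_apply_of_not_mem (p := fun a => a ∉ P2) τ.1 ha
      rw [h3, Equiv.Perm.mul_apply]
      have h4 : a = none ∨ a = some 22 := by
        have h5 : a ∈ P2 := not_not.1 ha
        simpa only [P2, Finset.mem_insert, Finset.mem_singleton] using h5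
      rcases h4 with rfl | rfl
      · rw [Equiv.swap_apply_left, hg2]
      · rw [Equiv.swap_apply_right, hg1]
  have hcomm : g.1 * t2 = t2 * g.1 := by
    have h1 := Equiv.swap_apply_apply g.1 (none : GolayPt) (some 22 : GolayPt)
    rw [hg1, hg2, Equiv.swap_comm] at h1
    calc g.1 * t2 = (g.1 * t2 * g.1⁻¹) * g.1 := by group
      _ = t2 * g.1 := by rw [← h1]
  refine Subgroup.index_eq_two_iff.2 ⟨τ, fun b => ?_⟩
  have hm : Equiv.Perm.ofSubtype (b * τ).1 = Equiv.Perm.ofSubtype b.1 * (g.1 * t2) := by
    rw [← hτ]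
    exact map_mul _ _ _
  by_cases hb : b ∈ H2
  · right
    refine ⟨hb, fun h => t2_not_mem ?_⟩
    rw [mem_H2, hm] at h
    have h1 : t2 = g.1⁻¹ * (Equiv.Perm.ofSubtype b.1)⁻¹ * (Equiv.Perm.ofSubtype b.1 * (g.1 * t2)) := by
      group
    rw [h1]
    exact mul_mem (mul_mem (inv_mem g.2) (inv_mem (mem_H2.1 hb))) h
  · left
    refine ⟨?_, hb⟩
    rw [mem_H2, hm, hcomm, ← mul_assoc]
    exact mul_mem ((ext_dichotomy b.2).resolve_left hb) g.2

theorem card_aut_D2 : Nat.card (setSystemAut D2) = 887040 := by
  have h1 := Subgroup.index_mul_card H2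
  rw [index_H2] at h1
  have h2 := isM22_H2.2
  omega

theorem autD2_pretransitive :
    MulAction.IsMultiplyPretransitive (setSystemAut D2) {a // a ∉ P2} 3 := by
  refine pretransitive_derived (j := 2) (k := 3) M24_le_aut
    (M24_isMultiplyPretransitive 5 (by norm_num)) ⟨![none, some 22], by decide⟩ ?_ ?_
  · intro i
    fin_cases i <;> simp
  · intro a ha
    simp only [P2, Finset.mem_insert, Finset.mem_singleton] at ha
    rcases ha with rfl | rfl
    · exact ⟨0, rfl⟩
    · exact ⟨1, rfl⟩

end Cfsg.Agent.Lib.Golay
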