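import Cfsg.Agent.Lib.Steiner.Rigid
import Cfsg.Agent.Lib.Golay.Dodecad2
import Cfsg.Agent.Lib.Golay.SimpleGroups
import Cfsg.Agent.Lib.Steiner.Numbers
import Cfsg.Prelude.Def_Sporadic

/-!
# The system of hexads on a dodecad and its automorphism group
-/

set_option autoImplicit false
set_option linter.unusedSectionVars false

namespace Cfsg.Agent.Lib.Golay

open Cfsg Cfsg.Agent.Lib.Compute Cfsg.Agent.Lib.Steiner
open scoped Pointwise

section abstract

variable {α : Type*} [Fintype α] [DecidableEq α]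

/-- Rigidity of an S(5,6,12). -/
theorem rigid_5_6_12 (hα : Fintype.card α = 12) {B : Set (Finset α)} (hB : IsSteinerSystem 5 6 B) :
    ∃ E : Enc α 12, ∀ τ ∈ setSystemAut B, (∀ i, i < 5 → τ (E.pt i) = E.pt i) → τ = 1 := by
  obtain ⟨E, hE⟩ := U12.hasStd hB (hall_5_6_12 hα hB) hα
  have hb0 : ∀ m ∈ U12.blocks0, m < 2 ^ 12 := fun m hm => by
    simpa using allL_iff.1 U12.blocks0_bound m hm
  have hBeq := eq_of_hasStd hB hα (by norm_num) hb0 U12.blocks0_nodup
    (by rw [U12.blocks0_length]; decide) E hE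
  refine ⟨E, fun τ hτ hfix => ?_⟩
  refine rigid_of_search E hb0 hBeq (base := [0, 1, 2, 3, 4]) (rest := [5, 6, 7, 8, 9, 10, 11]) ?_ ?_ ?_
    (by decide) (by decide) aSearch12 hτ ?_
  · intro i hi
    interval_cases i <;> simp
  · intro x hx
    simp at hx
    omega
  · intro x hx
    simp at hx
    omega
  · intro x hx
    apply hfix
    simp at hx
    omega

/-- Sharpness from rigidity at one base and transitivity. -/
theorem sharp_of_rigid {n k : ℕ} (hk : k ≤ n) (E : Enc α n) {B : Set (Finset α)}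
    (hT : MulAction.IsMultiplyPretransitive (setSystemAut B) α k)
    (hR : ∀ τ ∈ setSystemAut B, (∀ i, i < k → τ (E.pt i) = E.pt i) → τ = 1) (x : Fin k ↪ α) :
    MulAction.stabilizer (setSystemAut B) x = ⊥ := by
  let x0 : Fin k ↪ α := ⟨fun i => E.pt i, by
    intro i j h
    have h1 : E.idx (E.pt i) = E.idx (E.pt j) := congrArg E.idx h
    rw [E.idx_pt _ (lt_of_lt_of_le i.2 hk), E.idx_pt _ (lt_of_lt_of_le j.2 hk)] at h1
    exact Fin.ext h1⟩
  obtain ⟨g, hg⟩ := hT.exists_smul_eq x x0
  rw [eq_bot_iff]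
  intro τ hτ
  rw [Subgroup.mem_bot]
  have hτx : ∀ i, τ.1 (x i) = x i := fun i =>
    congrArg (fun z : Fin k ↪ α => z i) (MulAction.mem_stabilizer_iff.1 hτ)
  have hgx : ∀ i, g.1 (x i) = x0 i := fun i => congrArg (fun z : Fin k ↪ α => z i) hg
  have h1 : g.1 * τ.1 * g.1⁻¹ = 1 := by
    apply hR _ (mul_mem (mul_mem g.2 τ.2) (inv_mem g.2))
    intro i hi
    have h2 : E.pt i = x0 ⟨i, hi⟩ := rfl
    rw [h2, ← hgx]
    simp [hτx]
  have h2 : g * τ * g⁻¹ = 1 := Subtype.ext h1
  have h3 : τ = g⁻¹ * (g * τ * g⁻¹) * g := by group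
  rw [h3, h2]
  group

/-- A bijection onto the automorphism group, from transitivity and sharpness. -/
theorem surjective_of_sharp {G : Type*} [Group G] {B : Set (Finset α)} {k : ℕ}
    (ρ : G →* setSystemAut B)
    (hT : ∀ x y : Fin k ↪ α, ∃ g, ∀ i, (ρ g).1 (x i) = y i)
    (hS : ∀ x : Fin k ↪ α, MulAction.stabilizer (setSystemAut B) x = ⊥)
    (x : Fin k ↪ α) : Function.Surjective ρ := by
  intro σ
  obtain ⟨g, hg⟩ := hT x (x.trans σ.1.toEmbedding)
  refine ⟨g, ?_⟩
  have h1 : (ρ g)⁻¹ * σ ∈ MulAction.stabilizer (setSystemAut B) x := by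
    rw [MulAction.mem_stabilizer_iff]
    ext i
    have h2 := hg i
    show (ρ g).1⁻¹ (σ.1 (x i)) = x i
    rw [Equiv.Perm.inv_eq_iff_eq, h2]
    rfl
  rw [hS, Subgroup.mem_bot] at h1
  have h2 : σ = ρ g := by
    have := mul_eq_one_iff_eq_inv.1 h1
    simpa using this.symm
  exact h2.symm

/-- The complement of a block of an S(5,6,12) is a block, hence automorphisms of the system derived
at one point extend. -/
theorem ext_derived_5_6_12 (hα : Fintype.card α = 12) {B : Set (Finset α)}
    (hB : IsSteinerSystem 5 6 B) (p : α) {σ : Equiv.Perm {a // a ∉ ({p} : Finset α)}}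
    (hσ : σ ∈ setSystemAut (derivedS B {p})) : Equiv.Perm.ofSubtype σ ∈ setSystemAut B := by
  apply mem_aut_of_forall
  intro b hb
  by_cases hp : p ∈ b
  · exact (image_ofSubtype_mem hσ hb (by simpa using hp)).1
  · have hc : bᶜ ∈ B := compl_mem_of_nfib_zero (k := 6) (by rw [hα]) hB hb (nfib_5_6_12 hα hB hb).1
    have h1 := (image_ofSubtype_mem hσ hc (by simpa using hp)).1
    have h2 := compl_mem_of_nfib_zero (k := 6) (by rw [hα]) hB h1 (nfib_5_6_12 hα hB h1).1
    have h3 : (bᶜ.image (Equiv.Perm.ofSubtype σ))ᶜ = b.image (Equiv.Perm.ofSubtype σ) := by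
      ext a
      simp only [Finset.mem_compl, Finset.mem_image]
      constructor
      · intro h
        refine ⟨(Equiv.Perm.ofSubtype σ).symm a, ?_, by simp⟩
        by_contra hn
        exact h ⟨(Equiv.Perm.ofSubtype σ).symm a, hn, by simp⟩
      · rintro ⟨x, hx, rfl⟩ ⟨y, hy, hyx⟩
        have := (Equiv.Perm.ofSubtype σ).injective hyx
        subst this
        exact hy hx
    rwa [h3] at h2

end abstract

/-! ### The model -/

section model

variable (d : Finset GolayPt)

/-- The hexads on a dodecad. -/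
abbrev Hd : Set (Finset {p : GolayPt // p ∈ d}) :=
  {h | ∃ o ∈ octads, (o ∩ d).card = 6 ∧ h = Finset.subtype (fun p => p ∈ d) o}

variable {d}

theorem stab_mem_iff (g : MulAction.stabilizer M24 d) (a : GolayPt) : g.1.1 a ∈ d ↔ a ∈ d := by
  have h1 : d.image g.1.1 = d := MulAction.mem_stabilizer_iff.1 g.2
  constructor
  · intro h
    have h2 : g.1.1 a ∈ d.image g.1.1 := by rwa [h1]
    obtain ⟨b, hb, hba⟩ := Finset.mem_image.1 h2
    rwa [← g.1.1.injective hba]
  · intro h
    have h2 : g.1.1 a ∈ d.image g.1.1 := Finset.mem_image_of_mem _ h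
    rwa [h1] at h2

theorem subtypePerm_mem_Hd (g : MulAction.stabilizer M24 d) :
    g.1.1.subtypePerm (stab_mem_iff g) ∈ setSystemAut (Hd d) := by
  apply mem_aut_of_forall
  rintro _ ⟨o, ho, h6, rfl⟩
  refine ⟨o.image g.1.1, image_mem_octads g.1.2 ho, ?_, ?_⟩
  · have h1 : o.image g.1.1 ∩ d = (o ∩ d).image g.1.1 := by
      ext a
      simp only [Finset.mem_inter, Finset.mem_image]
      constructor
      · rintro ⟨⟨b, hb, rfl⟩, h2⟩
        exact ⟨b, ⟨hb, (stab_mem_iff g b).1 h2⟩, rfl⟩
      · rintro ⟨b, ⟨hb, h2⟩, rfl⟩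
        exact ⟨⟨b, hb, rfl⟩, (stab_mem_iff g b).2 h2⟩
    rw [h1, Finset.card_image_of_injective _ g.1.1.injective, h6]
  · ext ⟨a, ha⟩
    simp only [Finset.mem_image, Finset.mem_subtype, Equiv.Perm.subtypePerm_apply, Subtype.exists,
      Subtype.mk.injEq]
    constructor
    · rintro ⟨x, hx, hxb, rfl⟩
      exact ⟨x, hxb, rfl⟩
    · rintro ⟨x, hxb, rfl⟩
      exact ⟨x, (stab_mem_iff g x).1 ha, hxb, rfl⟩

/-- Restriction to the dodecad. -/
noncomputable def resHd : MulAction.stabilizer M24 d →* setSystemAut (Hd d) where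
  toFun g := ⟨g.1.1.subtypePerm (stab_mem_iff g), subtypePerm_mem_Hd g⟩
  map_one' := rfl
  map_mul' _ _ := rfl

theorem resHd_apply (g : MulAction.stabilizer M24 d) (a : {p : GolayPt // p ∈ d}) :
    ((resHd g : setSystemAut (Hd d)) : Equiv.Perm _) a = ⟨g.1.1 a.1, (stab_mem_iff g a.1).2 a.2⟩ := rfl

theorem card_Xd (hd : d ∈ dodecads) : Fintype.card {p : GolayPt // p ∈ d} = 12 := by
  rw [Fintype.card_coe]
  exact hd.2

theorem resHd_transitive (hd : d ∈ dodecads) (x y : Fin 5 ↪ {p : GolayPt // p ∈ d}) :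
    ∃ g, ∀ i, (resHd g).1 (x i) = y i := by
  obtain ⟨g, hg, -⟩ := sharply_five_transitive hd (x.trans (Function.Embedding.subtype _))
    (y.trans (Function.Embedding.subtype _)) (fun i => (x i).2) (fun i => (y i).2)
  exact ⟨g, fun i => Subtype.ext (hg i)⟩

theorem autHd_pretransitive (hd : d ∈ dodecads) :
    MulAction.IsMultiplyPretransitive (setSystemAut (Hd d)) {p : GolayPt // p ∈ d} 5 := by
  refine ⟨fun x y => ?_⟩
  obtain ⟨g, hg⟩ := resHd_transitive hd x y
  refine ⟨resHd g, ?_⟩
  apply Function.Embedding.ext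
  intro i
  exact hg i

theorem autHd_sharp (hd : d ∈ dodecads) (x : Fin 5 ↪ {p : GolayPt // p ∈ d}) :
    MulAction.stabilizer (setSystemAut (Hd d)) x = ⊥ := by
  obtain ⟨E, hE⟩ := rigid_5_6_12 (card_Xd hd) (hexads_steiner hd)
  exact sharp_of_rigid (by norm_num) E (autHd_pretransitive hd) hE x

theorem resHd_injective (hd : d ∈ dodecads) : Function.Injective (resHd (d := d)) := by
  rw [injective_iff_map_eq_one]
  intro g hg
  have hT := (Function.Embedding.nonempty_of_card_le (α := Fin 5) (β := {p : GolayPt // p ∈ d})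
    (by rw [card_Xd hd]; simp)).some
  let x := hT.trans (Function.Embedding.subtype _)
  obtain ⟨g', -, hu⟩ := sharply_five_transitive hd x x (fun i => (hT i).2) (fun i => (hT i).2)
  have h1 : ∀ a (ha : a ∈ d), g.1.1 a = a := by
    intro a ha
    have := congrArg (fun s : setSystemAut (Hd d) => (s.1 ⟨a, ha⟩).1) hg
    exact this
  rw [hu g (fun i => h1 _ (hT i).2), hu 1 (fun i => rfl)]

theorem resHd_bijective (hd : d ∈ dodecads) : Function.Bijective (resHd (d := d)) := by
  refine ⟨resHd_injective hd, ?_⟩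
  have hT := (Function.Embedding.nonempty_of_card_le (α := Fin 5) (β := {p : GolayPt // p ∈ d})
    (by rw [card_Xd hd]; simp)).some
  exact surjective_of_sharp resHd (resHd_transitive hd) (autHd_sharp hd) hT

/-- The stabiliser of a dodecad and the automorphism group of the hexads. -/
noncomputable def autHdEquiv (hd : d ∈ dodecads) : MulAction.stabilizer M24 d ≃* setSystemAut (Hd d) :=
  MulEquiv.ofBijective resHd (resHd_bijective hd)

theorem isM12_autHd (hd : d ∈ dodecads) : IsM12 (setSystemAut (Hd d)) :=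
  haveI := simple_stabilizer_dodecad hd
  ⟨(autHdEquiv hd).symm.isSimpleGroup,
    (Nat.card_congr (autHdEquiv hd).symm.toEquiv).trans (card_stabilizer_dodecad hd)⟩

/-! ### One point more -/

/-- The derived system of the hexads at a point. -/
abbrev H11 (d : Finset GolayPt) (p : {a : GolayPt // a ∈ d}) :
    Set (Finset {a : {a : GolayPt // a ∈ d} // a ∉ ({p} : Finset {a : GolayPt // a ∈ d})}) :=
  derivedS (Hd d) {p}

variable {p : {a : GolayPt // a ∈ d}}

theorem steiner_H11 (hd : d ∈ dodecads) : IsSteinerSystem 4 5 (H11 d p) :=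
  isSteiner_derived (t := 4) (k := 5) (hexads_steiner hd)

theorem card_X11 (hd : d ∈ dodecads) :
    Fintype.card {a : {a : GolayPt // a ∈ d} // a ∉ ({p} : Finset {a : GolayPt // a ∈ d})} = 11 := by
  rw [card_notMem, card_Xd hd]
  simp

theorem ext_H11 (hd : d ∈ dodecads) {σ : Equiv.Perm {a : {a : GolayPt // a ∈ d} // a ∉ ({p} : Finset {a : GolayPt // a ∈ d})}}
    (hσ : σ ∈ setSystemAut (H11 d p)) : Equiv.Perm.ofSubtype σ ∈ setSystemAut (Hd d) :=
  ext_derived_5_6_12 (card_Xd hd) (hexads_steiner hd) p hσ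

/-- The automorphism group of the derived system is the point stabiliser. -/
noncomputable def autH11Equiv (hd : d ∈ dodecads) :
    setSystemAut (H11 d p) ≃* MulAction.stabilizer (setSystemAut (Hd d)) p :=
  (Subgroup.topEquiv (G := setSystemAut (H11 d p))).symm.trans
    (fixEquiv (G := setSystemAut (Hd d)) le_rfl (P := {p})
      (K := MulAction.stabilizer (setSystemAut (Hd d)) p)
      (H := ⊤) (by
        intro g
        rw [MulAction.mem_stabilizer_iff]
        simp only [Finset.mem_singleton, forall_eq]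
        rfl) (by
        intro σ
        simp only [Subgroup.mem_top, true_iff]
        exact ext_H11 hd σ.2))

/-- The point stabiliser in the group of the hexads and the stabiliser of a flag. -/
noncomputable def flagEquiv (hd : d ∈ dodecads) :
    MulAction.stabilizer (setSystemAut (Hd d)) p ≃*
      ↥(MulAction.stabilizer M24 d ⊓ MulAction.stabilizer M24 p.1) where
  toFun x := ⟨((autHdEquiv hd).symm x.1).1, ⟨((autHdEquiv hd).symm x.1).2, by
    have h1 := resHd_apply ((autHdEquiv hd).symm x.1) p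
    have h2 : resHd ((autHdEquiv hd).symm x.1) = x.1 := (autHdEquiv hd).apply_symm_apply x.1
    rw [h2] at h1
    have h3 : x.1.1 p = p := MulAction.mem_stabilizer_iff.1 x.2
    rw [h3] at h1
    exact (congrArg Subtype.val h1).symm⟩⟩
  invFun y := ⟨resHd ⟨y.1, y.2.1⟩, by
    rw [MulAction.mem_stabilizer_iff]
    apply Subtype.ext
    exact y.2.2⟩
  left_inv x := by
    apply Subtype.ext
    exact (autHdEquiv hd).apply_symm_apply x.1
  right_inv y := by
    apply Subtype.ext
    exact congrArg (fun z : MulAction.stabilizer M24 d => z.1) ((autHdEquiv hd).symm_apply_apply ⟨y.1, y.2.1⟩)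
  map_mul' x y := by
    apply Subtype.ext
    exact congrArg (fun z : MulAction.stabilizer M24 d => z.1) (map_mul (autHdEquiv hd).symm x.1 y.1)

theorem isM11_autH11 (hd : d ∈ dodecads) : IsM11 (setSystemAut (H11 d p)) :=
  haveI := simple_stabilizer_flag hd p.2
  ⟨((autH11Equiv hd).trans (flagEquiv hd)).isSimpleGroup,
    (Nat.card_congr ((autH11Equiv hd).trans (flagEquiv hd)).toEquiv).trans (card_stabilizer_flag hd p.2)⟩

theorem autH11_pretransitive (hd : d ∈ dodecads) :
    MulAction.IsMultiplyPretransitive (setSystemAut (H11 d p))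
      {a : {a : GolayPt // a ∈ d} // a ∉ ({p} : Finset {a : GolayPt // a ∈ d})} 4 :=
  pretransitive_derived (G := setSystemAut (Hd d)) le_rfl (j := 1) (k := 4)
    (autHd_pretransitive hd) ⟨fun _ => p, fun a b _ => Subsingleton.elim a b⟩
    (fun _ => Finset.mem_singleton.2 rfl) (fun a ha => ⟨0, (Finset.mem_singleton.1 ha).symm⟩)

theorem autH11_sharp (hd : d ∈ dodecads)
    (x : Fin 4 ↪ {a : {a : GolayPt // a ∈ d} // a ∉ ({p} : Finset {a : GolayPt // a ∈ d})}) :
    MulAction.stabilizer (setSystemAut (H11 d p)) x = ⊥ := by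
  rw [eq_bot_iff]
  intro τ hτ
  rw [Subgroup.mem_bot]
  have hτx : ∀ i, τ.1 (x i) = x i := fun i =>
    congrArg (fun z : Fin 4 ↪ _ => z i) (MulAction.mem_stabilizer_iff.1 hτ)
  let y : Fin 5 ↪ {a : GolayPt // a ∈ d} := ⟨Fin.cons p (fun i => (x i).1), by
    intro a b
    refine Fin.cases ?_ (fun a => ?_) a <;> refine Fin.cases ?_ (fun b => ?_) b
    · intro _; rfl
    · intro h
      simp only [Fin.cons_zero, Fin.cons_succ] at h
      exact absurd (h ▸ Finset.mem_singleton_self p) (x b).2
    · intro h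
      simp only [Fin.cons_zero, Fin.cons_succ] at h
      exact absurd (h.symm ▸ Finset.mem_singleton_self p) (x a).2
    · intro h
      simp only [Fin.cons_succ] at h
      rw [x.injective (Subtype.ext h)]⟩
  have hs : (⟨_, ext_H11 hd τ.2⟩ : setSystemAut (Hd d)) ∈ MulAction.stabilizer (setSystemAut (Hd d)) y := by
    rw [MulAction.mem_stabilizer_iff]
    apply Function.Embedding.ext
    intro i
    refine Fin.cases ?_ (fun i => ?_) i
    · show Equiv.Perm.ofSubtype τ.1 p = p
      rw [Equiv.Perm.ofSubtype_apply_of_not_mem τ.1 (by simp)]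
    · show Equiv.Perm.ofSubtype τ.1 (x i).1 = (x i).1
      rw [Equiv.Perm.ofSubtype_apply_of_mem τ.1 (x i).2]
      exact congrArg (fun z => z.1) (hτx i)
  rw [autHd_sharp hd, Subgroup.mem_bot] at hs
  have h1 : Equiv.Perm.ofSubtype τ.1 = 1 := congrArg Subtype.val hs
  apply Subtype.ext
  exact Equiv.Perm.ofSubtype_injective (h1.trans (map_one _).symm)

end model

end Cfsg.Agent.Lib.Golay
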