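import Cfsg.Agent.Lib.Golay.Levels

/-!
# The pointwise stabiliser of an octad (generated by work7/gen_octad.py)
-/

set_option autoImplicit false

namespace Cfsg.Agent.Lib.Golay

open Cfsg Cfsg.Agent.Lib.Compute

/-- The points of the base octad. -/
def octL : List ℕ := [23, 17, 14, 5, 3, 2, 1, 0]

/-- The level of the chain of the pointwise stabiliser of the base octad. -/
def octLevel : Level where
  b := 4
  steps := []
  As := []
  Bs := []
  T :=
    [984818244535754528103549039458486304, 965128854020860192151391391390468128, 963721886883755259286232606933354528, 979121071158219704299181131031480352, 968708902336673183175954409307867168, 967812279691448225500382947153381408, 971592882964418941354553515258775584, 970499966350631336865513127433832480, 976448692869377735270425038196672544, 981818691054096003685363657089320992, 972512676110088067912772961567868960, 966182099583441531322624363496310816, 983548720921252936276249910206105632, 975346028712660580592452217730074656, 980224387687010295957922729495201824, 961365507626256404119956257276790816]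

/-- The final closure steps. -/
def octFinal : List (List ℕ × List ℕ) :=
  [([5275709, 692282], []), ([843820, 9543722], []), ([8561204], []), ([786999, 11108882], []), ([786999], []), ([8704546], []), ([21116], []), ([4538962, 14156372], []), ([4538962], []), ([14156372], []), ([3277413], []), ([], [2101096]), ([], [4202192]), ([], [9440193]), ([675712], [])]

theorem oct_check : checkChain [] octFinal [octLevel] octL = true := by decide +kernel

theorem oct_square : octLevel.T.all (fun p => allBelow (fun i => Nat.beq (pc p (pc p i)) i) 24) = true := by
  decide +kernel

theorem octL_mask : maskL octL = 8536111 := by decide +kernel

end Cfsg.Agent.Lib.Golay
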