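import Cfsg.Agent.Lib.Golay.OctadData
import Cfsg.Agent.Lib.Golay.SimpleGroups

/-!
# The pointwise stabiliser of an octad
-/

set_option autoImplicit false

namespace Cfsg.Agent.Lib.Golay

open Cfsg Cfsg.Agent.Lib.Compute
open scoped Pointwise

theorem octL_lt : ∀ x ∈ octL, x < 24 := by decide

theorem oct_finalOK : FinalOK [] [octLevel] octL := finalOK_of_checkChain _ _ octL_lt oct_check

theorem oct_levels : checkLevels [] [octLevel] octL = true := checkLevels_of_checkChain _ _ oct_check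

/-- Order 16. -/
theorem card_octFix : Nat.card (stabL (GE []) (octL.map pt)) = 16 := by
  rw [card_stabL_of_levels octL_lt oct_levels oct_finalOK]
  decide +kernel

/-- Every element of the pointwise stabiliser squares to one. -/
theorem octFix_square {σ : Equiv.Perm GolayPt} (hσ : σ ∈ stabL (GE []) (octL.map pt)) : σ * σ = 1 := by
  obtain ⟨h1, _⟩ := checkLevels_cons oct_levels
  obtain ⟨_, hb, _, _, helt, _⟩ := checkLevel_spec h1
  obtain ⟨p, hp, hpm, hpb⟩ := level_cover octL_lt h1 hσ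
  have hnext : (ppm p)⁻¹ * σ ∈ stabL (GE []) ((octLevel.b :: octL).map pt) := by
    have h5 := (stabL (GE []) (octL.map pt)).mul_mem ((stabL (GE []) (octL.map pt)).inv_mem hpm) hσ
    refine ⟨h5.1, fun x hx => ?_⟩
    rcases List.mem_cons.1 hx with rfl | hx
    · rw [Equiv.Perm.mul_apply, ← hpb]
      simp
    · exact h5.2 x hx
  have h6 := oct_finalOK _ hnext
  have h7 : σ = ppm p := (inv_mul_eq_one.1 h6).symm
  rw [h7]
  have h8 := List.all_eq_true.1 oct_square p hp
  have hperm := checkElt_perm (helt p hp)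
  exact eq_of_isCode (isCode_mul₂ hperm hperm) isCode_one h8

theorem coe_octL : ((octL.map pt).toFinset : Finset GolayPt) = enc.finOf 8536111 := by
  ext a
  rw [← octL_mask, mem_maskL octL_lt, List.mem_toFinset]

theorem base_octad_mem : enc.finOf 8536111 ∈ octads := by
  rw [mem_octads_iff]
  refine ⟨8536111 % 4096, by norm_num, ?_, ?_⟩ <;> (have h : word (8536111 % 4096) = 8536111 := by decide +kernel) <;> rw [h]
  decide +kernel

/-- S0381 -/
theorem octad_fixing (o : Finset GolayPt) (ho : o ∈ octads) :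
    Nat.card ↥(M24 ⊓ fixingSubgroup (Equiv.Perm GolayPt) (o : Set GolayPt)) = 16 ∧
    ∀ g ∈ M24 ⊓ fixingSubgroup (Equiv.Perm GolayPt) (o : Set GolayPt), g * g = 1 := by
  obtain ⟨g, hg⟩ := octads_transitive ho base_octad_mem
  have hg' : o.image (g : Equiv.Perm GolayPt) = enc.finOf 8536111 := hg
  have hiff : ∀ σ : Equiv.Perm GolayPt, σ ∈ M24 ⊓ fixingSubgroup (Equiv.Perm GolayPt) (o : Set GolayPt) ↔
      (g : Equiv.Perm GolayPt) * σ * (g : Equiv.Perm GolayPt)⁻¹ ∈ stabL (GE []) (octL.map pt) := by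
    intro σ
    have hmem : ∀ y, y ∈ octL.map pt ↔ y ∈ o.image (g : Equiv.Perm GolayPt) := by
      intro y
      rw [hg', ← coe_octL, List.mem_toFinset]
    constructor
    · rintro ⟨h1, h2⟩
      refine ⟨⟨M24.mul_mem (M24.mul_mem g.2 h1) (M24.inv_mem g.2), by simp⟩, fun y hy => ?_⟩
      obtain ⟨a, ha, rfl⟩ := Finset.mem_image.1 ((hmem y).1 hy)
      have h3 : σ a = a := (mem_fixingSubgroup_iff _).1 h2 a ha
      simp [h3]
    · intro h
      have hM : σ ∈ M24 := by
        have h1 := M24.mul_mem (M24.mul_mem (M24.inv_mem g.2) h.1.1) g.2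
        have h2 : (g : Equiv.Perm GolayPt)⁻¹ * ((g : Equiv.Perm GolayPt) * σ * (g : Equiv.Perm GolayPt)⁻¹) * (g : Equiv.Perm GolayPt) = σ := by
          group
        rwa [h2] at h1
      refine ⟨hM, (mem_fixingSubgroup_iff _).2 fun a ha => ?_⟩
      have h3 := h.2 _ ((hmem _).2 (Finset.mem_image_of_mem _ ha))
      have h4 : ((g : Equiv.Perm GolayPt) * σ * (g : Equiv.Perm GolayPt)⁻¹) ((g : Equiv.Perm GolayPt) a) = (g : Equiv.Perm GolayPt) (σ a) := by
        simp
      rw [h4] at h3
      exact (g : Equiv.Perm GolayPt).injective h3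
  constructor
  · rw [← card_octFix]
    apply Nat.card_congr
    exact
      { toFun := fun x => ⟨_, (hiff x.1).1 x.2⟩
        invFun := fun y => ⟨(g : Equiv.Perm GolayPt)⁻¹ * y.1 * (g : Equiv.Perm GolayPt), (hiff _).2 (by
          have h2 : (g : Equiv.Perm GolayPt) * ((g : Equiv.Perm GolayPt)⁻¹ * y.1 * (g : Equiv.Perm GolayPt)) * (g : Equiv.Perm GolayPt)⁻¹ = y.1 := by group
          rw [h2]
          exact y.2)⟩
        left_inv := fun x => by
          apply Subtype.ext
          show (g : Equiv.Perm GolayPt)⁻¹ * ((g : Equiv.Perm GolayPt) * x.1 * (g : Equiv.Perm GolayPt)⁻¹) * (g : Equiv.Perm GolayPt) = x.1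
          group
        right_inv := fun y => by
          apply Subtype.ext
          show (g : Equiv.Perm GolayPt) * ((g : Equiv.Perm GolayPt)⁻¹ * y.1 * (g : Equiv.Perm GolayPt)) * (g : Equiv.Perm GolayPt)⁻¹ = y.1
          group }
  · intro σ hσ
    have h1 := octFix_square ((hiff σ).1 hσ)
    have h2 : ((g : Equiv.Perm GolayPt) * σ * (g : Equiv.Perm GolayPt)⁻¹) * ((g : Equiv.Perm GolayPt) * σ * (g : Equiv.Perm GolayPt)⁻¹) =
        (g : Equiv.Perm GolayPt) * (σ * σ) * (g : Equiv.Perm GolayPt)⁻¹ := by group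
    rw [h2] at h1
    have h3 : σ * σ = (g : Equiv.Perm GolayPt)⁻¹ * ((g : Equiv.Perm GolayPt) * (σ * σ) * (g : Equiv.Perm GolayPt)⁻¹) * (g : Equiv.Perm GolayPt) := by group
    rw [h3, h1]
    group

end Cfsg.Agent.Lib.Golay
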