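import Cfsg.Agent.Lib.Golay.Levels
import Cfsg.Agent.Lib.Compute.SimplePerm

/-!
# Simplicity of stabilisers from chain certificates
-/

set_option autoImplicit false

namespace Cfsg.Agent.Lib.Golay

open Cfsg Cfsg.Agent.Lib.Compute

/-- The mask of the points of the region `R` outside of the fixed list. -/
noncomputable def Ymask (R : ℕ) (L : List ℕ) : ℕ := Nat.land R (Nat.xor ALL (maskL L))

theorem mem_Ymask {R : ℕ} {L : List ℕ} (hL : ∀ x ∈ L, x < 24) {a : GolayPt} :
    a ∈ enc.finOf (Ymask R L) ↔ a ∈ enc.finOf R ∧ a ∉ L.map pt := by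
  have h1 : Ymask R L = R &&& (ALL ^^^ maskL L) := rfl
  rw [h1, enc.finOf_and, Finset.mem_inter, mem_compl, mem_maskL hL]

/-- The region as a set. -/
noncomputable abbrev Yset (R : ℕ) (L : List ℕ) : Set GolayPt := (enc.finOf (Ymask R L) : Finset GolayPt)

theorem ncard_Yset (R : ℕ) (L : List ℕ) : (Yset R L).ncard = Enc.popAux (Ymask R L) 24 := by
  rw [Set.ncard_coe_finset, card_enc_finOf]

variable {extra : List ℕ} {levels : List Level} {L : List ℕ} {R : ℕ}

theorem Yset_inv (hL : ∀ x ∈ L, x < 24) (hR : ∀ σ ∈ GE extra, IsInv σ R) :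
    ∀ σ ∈ stabL (GE extra) (L.map pt), ∀ a ∈ Yset R L, σ a ∈ Yset R L := by
  intro σ hσ a ha
  have ha' : a ∈ enc.finOf (Ymask R L) := ha
  rw [mem_Ymask hL] at ha'
  show σ a ∈ enc.finOf (Ymask R L)
  rw [mem_Ymask hL]
  refine ⟨(hR σ hσ.1 a).2 ha'.1, fun h => ?_⟩
  have h2 := hσ.2 _ h
  rw [σ.injective h2] at h
  exact ha'.2 h

theorem faith_of_levels (hL : ∀ x ∈ L, x < 24)
    (hfin : FinalOK extra levels L)
    (hfaith : (finalL levels L).all (fun x => Nat.blt x 24 && (tb R x || List.elem x L)) = true) :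
    ∀ σ ∈ stabL (GE extra) (L.map pt), (∀ a ∈ Yset R L, σ a = a) → σ = 1 := by
  intro σ hσ hfix
  apply hfin
  refine ⟨hσ.1, fun y hy => ?_⟩
  obtain ⟨x, hx, rfl⟩ := List.mem_map.1 hy
  have h1 := List.all_eq_true.1 hfaith x hx
  simp only [Bool.and_eq_true, Bool.or_eq_true] at h1
  obtain ⟨h2, h3⟩ := h1
  have hx24 : x < 24 := by simpa using h2
  rcases h3 with h3 | h3
  · by_cases h4 : pt x ∈ L.map pt
    · exact hσ.2 _ h4
    · apply hfix
      show pt x ∈ enc.finOf (Ymask R L)
      rw [mem_Ymask hL]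
      refine ⟨?_, h4⟩
      rw [Enc.mem_finOf, enc_idx, idx_pt hx24, ← tb_eq]
      exact h3
  · exact hσ.2 _ (List.mem_map_of_mem (List.elem_iff.1 h3))

theorem two_of_levels (hL : ∀ x ∈ L, x < 24) (hc : checkLevels extra levels L = true)
    (hR : ∀ σ ∈ GE extra, IsInv σ R) (hfree : ∀ lv ∈ levels.take 2, lv.FreeIn R)
    (hlen : 2 ≤ levels.length) :
    ∀ a ∈ Yset R L, ∀ b ∈ Yset R L, ∀ c ∈ Yset R L, ∀ d ∈ Yset R L, a ≠ b → c ≠ d →
      ∃ σ ∈ stabL (GE extra) (L.map pt), σ a = c ∧ σ b = d := by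
  match levels, hlen, hc, hfree with
  | lv1 :: lv2 :: rest, _, hc, hfree =>
    have key : ∀ a ∈ Yset R L, ∀ b ∈ Yset R L, a ≠ b →
        ∃ g ∈ stabL (GE extra) (L.map pt), g (pt lv1.b) = a ∧ g (pt lv2.b) = b := by
      intro a ha b hb hab
      have ha' : a ∈ enc.finOf (Ymask R L) := ha
      have hb' : b ∈ enc.finOf (Ymask R L) := hb
      rw [mem_Ymask hL] at ha' hb'
      obtain ⟨g, hg, hmap⟩ := exists_maps_levels hR (lv1 :: lv2 :: rest) [a, b] L (by simpa using hab)
        (by
          intro y hy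
          simp only [List.mem_cons, List.not_mem_nil, or_false] at hy
          rcases hy with rfl | rfl
          · exact ha'.2
          · exact hb'.2)
        (by
          intro y hy
          simp only [List.mem_cons, List.not_mem_nil, or_false] at hy
          rcases hy with rfl | rfl
          · exact ha'.1
          · exact hb'.1)
        hL (by simp) hc hfree
      refine ⟨g, hg, ?_⟩
      simpa using hmap
    intro a ha b hb c hc' d hd hab hcd
    obtain ⟨g, hg, hg1, hg2⟩ := key a ha b hb hab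
    obtain ⟨h, hh, hh1, hh2⟩ := key c hc' d hd hcd
    refine ⟨h * g⁻¹, (stabL (GE extra) (L.map pt)).mul_mem hh ((stabL (GE extra) (L.map pt)).inv_mem hg), ?_, ?_⟩
    · rw [Equiv.Perm.mul_apply, ← hg1, ← hh1]
      simp
    · rw [Equiv.Perm.mul_apply, ← hg2, ← hh2]
      simp

/-! ### Orders -/

/-- Iterate of a code. -/
noncomputable def iterCode (f : ℕ → ℕ) (n i : ℕ) : ℕ := Nat.rec i (fun _ ih => f ih) n

theorem iterCode_isCode {σ : Equiv.Perm GolayPt} {f : ℕ → ℕ} (hf : enc.IsCode σ f) (n : ℕ) :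
    enc.IsCode (σ ^ n) (iterCode f n) := by
  induction n with
  | zero => intro a; rfl
  | succ n ih =>
    intro a
    have h1 : iterCode f (n + 1) (enc.idx a) = f (iterCode f n (enc.idx a)) := rfl
    rw [h1, ih a, hf, pow_succ', Equiv.Perm.mul_apply]

/-- The order check. -/
noncomputable def checkOrder (c p : ℕ) : Bool :=
  allBelow (fun i => Nat.beq (iterCode (pc c) p i) i) 24 && !allBelow (fun i => Nat.beq (pc c i) i) 24

/-- Two coded permutations agreeing on the indices are equal. -/
theorem eq_of_isCode {σ τ : Equiv.Perm GolayPt} {f g : ℕ → ℕ} (hf : enc.IsCode σ f)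
    (hg : enc.IsCode τ g) (h : allBelow (fun i => Nat.beq (f i) (g i)) 24 = true) : σ = τ := by
  refine Equiv.ext fun a => ?_
  apply enc.idx_injective
  rw [← hf, ← hg]
  exact Nat.eq_of_beq_eq_true ((allBelow_iff _ _).1 h _ (enc.idx_lt a))

theorem isCode_one : enc.IsCode 1 (fun i => i) := fun _ => rfl

theorem orderOf_of_check {c p : ℕ} (hc : checkPerm 24 (pc c) = true) (hp : p.Prime)
    (h : checkOrder c p = true) : orderOf (ppm c) = p := by
  have : Fact p.Prime := ⟨hp⟩
  simp only [checkOrder, Bool.and_eq_true, Bool.not_eq_true'] at h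
  have hcode := enc.isCode_perm hc
  apply orderOf_eq_prime
  · exact eq_of_isCode (iterCode_isCode hcode p) isCode_one h.1
  · intro h1
    have h2 : allBelow (fun i => Nat.beq (pc c i) i) 24 = true := by
      rw [allBelow_iff]
      intro i hi
      have h3 := hcode (pt i)
      have h1' : enc.perm (pc c) = 1 := h1
      rw [h1', enc_idx] at h3
      have h4 : enc.idx ((1 : Equiv.Perm GolayPt) (pt i)) = i := by
        show idx (pt i) = i
        exact idx_pt hi
      rw [h4, idx_pt hi] at h3
      rw [h3]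
      exact Nat.beq_refl i
    rw [h2] at h
    simp at h

/-! ### Decomposition certificates -/

theorem isCode_mul₂ {p q : ℕ} (hp : checkPerm 24 (pc p) = true) (hq : checkPerm 24 (pc q) = true) :
    enc.IsCode (ppm p * ppm q) (fun i => pc p (pc q i)) := by
  intro a
  have h1 := enc.isCode_perm hq a
  have h2 := enc.isCode_perm hp (ppm q a)
  simp only [Equiv.Perm.mul_apply]
  rw [← h2, ← h1]

/-- The code of a product of the first components. -/
noncomputable def evalProd (l : List (ℕ × ℕ)) (i : ℕ) : ℕ := List.rec i (fun e _ ih => pc e.1 ih) l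

/-- `e.1` is the conjugate of `c` by `e.2`, an element of the group. -/
noncomputable def checkConjEntry (extra L : List ℕ) (c : ℕ) (e : ℕ × ℕ) : Bool :=
  checkPerm 24 (pc e.1) && checkElt extra L e.2 &&
    allBelow (fun i => Nat.beq (pc e.1 (pc e.2 i)) (pc e.2 (pc c i))) 24

/-- `t` is the product of the conjugates in `l`. -/
noncomputable def checkDecomp (extra L : List ℕ) (c t : ℕ) (l : List (ℕ × ℕ)) : Bool :=
  l.all (checkConjEntry extra L c) && allBelow (fun i => Nat.beq (pc t i) (evalProd l i)) 24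

/-- The check of a list of decompositions. -/
noncomputable def checkDecomps (extra L : List ℕ) (c : ℕ) :
    List ℕ → List (List (ℕ × ℕ)) → Bool
  | [], _ => true
  | _ :: _, [] => false
  | t :: ts, l :: ls => checkDecomp extra L c t l && checkDecomps extra L c ts ls

theorem evalProd_isCode (l : List (ℕ × ℕ)) (hl : ∀ e ∈ l, checkPerm 24 (pc e.1) = true) :
    enc.IsCode ((l.map fun e => ppm e.1).prod) (evalProd l) := by
  induction l with
  | nil => intro a; rfl
  | cons e l ih =>
    intro a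
    have h1 := ih (fun e' he' => hl e' (List.mem_cons_of_mem _ he')) a
    have h2 := enc.isCode_perm (hl e (by simp)) ((l.map fun e => ppm e.1).prod a)
    have h3 : evalProd (e :: l) (enc.idx a) = pc e.1 (evalProd l (enc.idx a)) := rfl
    rw [h3, h1, h2]
    simp

theorem mem_of_checkDecomp {c t : ℕ} {l : List (ℕ × ℕ)} (hc : checkPerm 24 (pc c) = true)
    (ht : checkPerm 24 (pc t) = true) (hL : ∀ x ∈ L, x < 24)
    (h : checkDecomp extra L c t l = true) (N : Subgroup (Equiv.Perm GolayPt)) (hcN : ppm c ∈ N)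
    (hN : ∀ h ∈ stabL (GE extra) (L.map pt), ∀ x ∈ N, h * x * h⁻¹ ∈ N) : ppm t ∈ N := by
  simp only [checkDecomp, Bool.and_eq_true, List.all_eq_true] at h
  obtain ⟨h1, h2⟩ := h
  have hl : ∀ e ∈ l, checkPerm 24 (pc e.1) = true := by
    intro e he
    have := h1 e he
    simp only [checkConjEntry, Bool.and_eq_true] at this
    exact this.1.1
  have heq : ppm t = (l.map fun e => ppm e.1).prod :=
    eq_of_isCode (enc.isCode_perm ht) (evalProd_isCode l hl) h2
  rw [heq]
  apply Subgroup.list_prod_mem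
  intro x hx
  obtain ⟨e, he, rfl⟩ := List.mem_map.1 hx
  have h3 := h1 e he
  simp only [checkConjEntry, Bool.and_eq_true] at h3
  obtain ⟨⟨h4, h5⟩, h6⟩ := h3
  have h7 : ppm e.1 * ppm e.2 = ppm e.2 * ppm c :=
    eq_of_isCode (f := fun i => pc e.1 (pc e.2 i)) (g := fun i => pc e.2 (pc c i))
      (isCode_mul₂ h4 (checkElt_perm h5)) (isCode_mul₂ (checkElt_perm h5) hc) h6
  have h8 : ppm e.1 = ppm e.2 * ppm c * (ppm e.2)⁻¹ := by
    rw [← h7]
    simp
  rw [h8]
  exact hN _ (checkElt_mem h5 hL) _ hcN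

theorem mem_of_checkDecomps {c : ℕ} (hc : checkPerm 24 (pc c) = true) (hL : ∀ x ∈ L, x < 24)
    (N : Subgroup (Equiv.Perm GolayPt)) (hcN : ppm c ∈ N)
    (hN : ∀ h ∈ stabL (GE extra) (L.map pt), ∀ x ∈ N, h * x * h⁻¹ ∈ N) :
    ∀ (ts : List ℕ) (ls : List (List (ℕ × ℕ))), (∀ t ∈ ts, checkPerm 24 (pc t) = true) →
      checkDecomps extra L c ts ls = true → ∀ t ∈ ts, ppm t ∈ N := by
  intro ts
  induction ts with
  | nil => intro _ _ _ t ht; simp at ht
  | cons t ts ih =>
    intro ls hperm h t' ht'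
    cases ls with
    | nil => simp [checkDecomps] at h
    | cons l ls =>
      simp only [checkDecomps, Bool.and_eq_true] at h
      rcases List.mem_cons.1 ht' with rfl | ht'
      · exact mem_of_checkDecomp hc (hperm _ (by simp)) hL h.1 N hcN hN
      · exact ih ls (fun t'' ht'' => hperm t'' (List.mem_cons_of_mem _ ht'')) h.2 t' ht'

/-- The elements of the levels are valid permutations. -/
theorem perm_of_levels : ∀ (levels : List Level) (L : List ℕ), checkLevels extra levels L = true →
    ∀ t ∈ levels.flatMap (fun lv => lv.T), checkPerm 24 (pc t) = true := by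
  intro levels
  induction levels with
  | nil => intro _ _ t ht; simp at ht
  | cons lv rest ih =>
    intro L h t ht
    obtain ⟨h1, h2⟩ := checkLevels_cons h
    obtain ⟨_, _, _, _, helt, _⟩ := checkLevel_spec h1
    rw [List.flatMap_cons, List.mem_append] at ht
    rcases ht with ht | ht
    · exact checkElt_perm (helt t ht)
    · exact ih _ h2 t ht

/-- First simplicity criterion for chains. -/
theorem simple_A (hL : ∀ x ∈ L, x < 24) (hc : checkLevels extra levels L = true)
    (hfin : FinalOK extra levels L) (hR : ∀ σ ∈ GE extra, IsInv σ R)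
    (hfree : ∀ lv ∈ levels.take 2, lv.FreeIn R) (hlen : 2 ≤ levels.length)
    (hfaith : (finalL levels L).all (fun x => Nat.blt x 24 && (tb R x || List.elem x L)) = true)
    {p : ℕ} (hp : p.Prime) (hpY : p ∣ Enc.popAux (Ymask R L) 24)
    (hpS : ¬ p ^ 2 ∣ (levels.map fun lv => lv.T.length).prod)
    {c : ℕ} (hcelt : checkElt extra L c = true) (hord : checkOrder c p = true)
    {decomps : List (List (ℕ × ℕ))}
    (hdec : checkDecomps extra L c (levels.flatMap fun lv => lv.T) decomps = true) :
    IsSimpleGroup (stabL (GE extra) (L.map pt)) := by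
  refine simple_of_perm_A (Y := Yset R L) (Yset_inv hL hR) (faith_of_levels hL hfin hfaith)
    (two_of_levels hL hc hR hfree hlen) hp (by rw [ncard_Yset]; exact hpY)
    (by rw [card_stabL_of_levels hL hc hfin]; exact hpS) (c := ppm c) (checkElt_mem hcelt hL)
    (orderOf_of_check (checkElt_perm hcelt) hp hord) ?_
  intro N hcN hN
  apply stabL_le_of_levels N levels L hL hc hfin
  intro lv hlv t ht
  apply mem_of_checkDecomps (checkElt_perm hcelt) hL N hcN hN _ decomps (perm_of_levels levels L hc) hdec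
  exact List.mem_flatMap.2 ⟨lv, hlv, ht⟩

/-- Second simplicity criterion for chains. -/
theorem simple_B (hL : ∀ x ∈ L, x < 24) (hc : checkLevels extra levels L = true)
    (hfin : FinalOK extra levels L) (hR : ∀ σ ∈ GE extra, IsInv σ R)
    (hfree : ∀ lv ∈ levels.take 2, lv.FreeIn R) (hlen : 2 ≤ levels.length)
    (hfaith : (finalL levels L).all (fun x => Nat.blt x 24 && (tb R x || List.elem x L)) = true)
    {x : ℕ} (hx : x < 24) (hxY : tb (Ymask R L) x = true)
    (hsimple : IsSimpleGroup (stabL (GE extra) ((x :: L).map pt)))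
    {p q : ℕ} (hp : p.Prime) (hq : q.Prime) (hpq : p ≠ q) (hpY : p ∣ Enc.popAux (Ymask R L) 24)
    (hqY : q ∣ Enc.popAux (Ymask R L) 24) :
    IsSimpleGroup (stabL (GE extra) (L.map pt)) := by
  refine simple_of_perm_B (Y := Yset R L) (T := stabL (GE extra) ((x :: L).map pt)) (x := pt x)
    (Yset_inv hL hR) (faith_of_levels hL hfin hfaith)
    (two_of_levels hL hc hR hfree hlen) ?_ ?_ hsimple hp hq hpq (by rw [ncard_Yset]; exact hpY)
    (by rw [ncard_Yset]; exact hqY)
  · show pt x ∈ enc.finOf (Ymask R L)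
    rw [Enc.mem_finOf, enc_idx, idx_pt hx, ← tb_eq]
    exact hxY
  · intro σ
    constructor
    · intro h
      exact ⟨⟨h.1, fun y hy => h.2 y (by simp [hy])⟩, h.2 _ (by simp)⟩
    · rintro ⟨⟨h1, h2⟩, h3⟩
      refine ⟨h1, fun y hy => ?_⟩
      simp only [List.map_cons, List.mem_cons] at hy
      rcases hy with rfl | hy
      · exact h3
      · exact h2 y hy

end Cfsg.Agent.Lib.Golay
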