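import Cfsg.Agent.Lib.Golay.Orbit
import Cfsg.Agent.Lib.Golay.Facts

/-!
# Spanning sets of the code, and duality
-/

set_option autoImplicit false

namespace Cfsg.Agent.Lib.Golay

open Cfsg Cfsg.Agent.Lib.Compute
open scoped Pointwise

theorem spanWord_mem_sub (S : Submodule (ZMod 2) (GolayPt → ZMod 2)) (l : List ℕ)
    (hl : ∀ g ∈ l, wordOf g ∈ S) (k : ℕ) : wordOf (spanWord l k) ∈ S := by
  induction l generalizing k with
  | nil => rw [spanWord_nil, wordOf_zero]; exact zero_mem _
  | cons g l ih =>
    rw [spanWord_cons]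
    have h1 := ih (fun x hx => hl x (by simp [hx])) (k / 2)
    cases Nat.beq (k % 2) 1
    · simpa using h1
    · simp only [bcond_true]
      rw [wordOf_xor]
      exact add_mem (hl g (by simp)) h1

/-- A list of words which span the code (certified by the combinations `cert` giving the basis). -/
theorem golayCode_le_of_span {l cert : List ℕ} (hc : basis = cert.map (spanWord l))
    {S : Submodule (ZMod 2) (GolayPt → ZMod 2)} (h : ∀ g ∈ l, wordOf g ∈ S) : golayCode ≤ S := by
  intro w hw
  obtain ⟨k, _, rfl⟩ := exists_word_of_mem hw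
  apply spanWord_mem_sub S basis
  intro g hg
  rw [hc] at hg
  obtain ⟨c, _, rfl⟩ := List.mem_map.1 hg
  exact spanWord_mem_sub S l h c

/-- `permWord` as a linear map. -/
def permLin (σ : Equiv.Perm GolayPt) : (GolayPt → ZMod 2) →ₗ[ZMod 2] (GolayPt → ZMod 2) where
  toFun := permWord σ
  map_add' _ _ := rfl
  map_smul' _ _ := rfl

/-- It suffices to map a spanning list into the code. -/
theorem mem_M24_of_span {l cert : List ℕ} (hc : basis = cert.map (spanWord l))
    {σ : Equiv.Perm GolayPt} (h : ∀ g ∈ l, permWord σ (wordOf g) ∈ golayCode) : σ ∈ M24 :=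
  mem_M24_of_forall fun _ hw =>
    golayCode_le_of_span hc (S := golayCode.comap (permLin σ)) h hw

/-- The image of a word whose support goes to an octad is in the code. -/
theorem permWord_mem_of_image {σ : Equiv.Perm GolayPt} {g : ℕ}
    (h : (enc.finOf g).image σ ∈ octads) : permWord σ (wordOf g) ∈ golayCode := by
  obtain ⟨⟨w, hw, hsw⟩, _⟩ := h
  have h2 : support₂ (permWord σ (wordOf g)) = support₂ w := by
    rw [hsw, support_permWord, support_wordOf]
    rfl
  rw [support_inj h2]
  exact hw

/-- The check for duality. -/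
theorem dual_check : allBelow (fun h => bcond (Nat.beq h 0) true
    (basis.any fun g => Nat.beq (Nat.mod (Enc.popAux (Nat.land g (Nat.mul h 4096)) 24) 2) 1)) 4096 = true := by
  decide +kernel

/-- A word orthogonal to the code is in the code. -/
theorem mem_of_pairing {w : GolayPt → ZMod 2} (h : ∀ g ∈ basis, ∑ i, wordOf g i * w i = 0) :
    w ∈ golayCode := by
  obtain ⟨m, hm, rfl⟩ := exists_wordOf w
  set k := m % 4096 with hk
  have hklt : k < 4096 := Nat.mod_lt _ (by norm_num)
  set m' := m ^^^ word k with hm'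
  have hm'lt : m' < 2 ^ 24 := Nat.xor_lt_two_pow hm (word_lt hklt)
  have hmod : m' % 2 ^ 12 = 0 := by
    have h1 : word k % 2 ^ 12 = k := word_mod hklt
    have h2 : m % 2 ^ 12 = k := rfl
    rw [hm', Nat.xor_mod_two_pow, h1, h2, Nat.xor_self]
  obtain ⟨q, hq⟩ := Nat.dvd_of_mod_eq_zero hmod
  have hqlt : q < 4096 := by
    rw [hq] at hm'lt
    norm_num at hm'lt
    omega
  have hw : wordOf m = wordOf m' + wordOf (word k) := by
    rw [← wordOf_xor, hm', Nat.xor_assoc, Nat.xor_self, Nat.xor_zero]
  have horth : ∀ g ∈ basis, ∑ i, wordOf g i * wordOf m' i = 0 := by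
    intro g hg
    have h1 := h g hg
    have h2 : ∑ i, wordOf g i * wordOf (word k) i = 0 :=
      pairing_eq_zero (basis_mem g hg) (word_mem k)
    rw [hw, pairing_comm, pairing_add_left, pairing_comm (wordOf (word k)), h2, add_zero,
      pairing_comm] at h1
    exact h1
  have hq0 : q = 0 := by
    have h1 := (allBelow_iff _ _).1 dual_check q hqlt
    by_contra hne
    have h2 : Nat.beq q 0 = false := by
      cases hb : Nat.beq q 0
      · rfl
      · exact absurd (Nat.eq_of_beq_eq_true hb) hne
    rw [h2, bcond_false, List.any_eq_true] at h1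
    obtain ⟨g, hg, h3⟩ := h1
    have h4 := horth g hg
    rw [sum_wordOf_mul] at h4
    have h5 : m' = Nat.mul q 4096 := by rw [hq]; norm_num [Nat.mul_comm]
    rw [← h5] at h3
    have h6 : Enc.popAux (g &&& m') 24 % 2 = 1 := Nat.eq_of_beq_eq_true h3
    have h7 := (ZMod.natCast_eq_zero_iff _ 2).1 h4
    omega
  have hm0 : m' = 0 := by rw [hq, hq0]; norm_num
  rw [hw, hm0, wordOf_zero, zero_add]
  exact word_mem k

/-- Orthogonal to a spanning list. -/
theorem mem_of_pairing_span {l cert : List ℕ} (hc : basis = cert.map (spanWord l))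
    {w : GolayPt → ZMod 2} (h : ∀ g ∈ l, ∑ i, wordOf g i * w i = 0) : w ∈ golayCode := by
  apply mem_of_pairing
  intro g hg
  rw [hc] at hg
  obtain ⟨c, _, rfl⟩ := List.mem_map.1 hg
  exact pairing_span_left l w h c

end Cfsg.Agent.Lib.Golay
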